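/-
B & G section 10 in the shape of the statements S1350, S1404 - S1414 (from the interface classes).
-/
import Cfsg.Agent.Odd.BG10a

set_option autoImplicit false

open Cfsg CL.Grp CL.Loc
open scoped Pointwise

namespace CL.Odd.S10

universe u

variable {G : Type u} [Group G] [Finite G]

theorem st1350 [BG10_2 G] (M : Subgroup G) (hM : IsCoatom M) :
    IsPiHallOf (sigma M) (sigmaCore M) M ∧ IsPiHall (sigma M) (sigmaCore M) ∧
      ∀ N : Subgroup G, M ≤ Subgroup.normalizer (N : Set G) → IsPiHallOf (sigma M) N M → N = sigmaCore M :=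
  ⟨BG10_2.Msigma_Hall hM, Hall.top_iff.1 (BG10_2.Msigma_Hall_G hM), fun _ h1 h2 => (Hall.eq_piCoreOf h2 h1).symm⟩

omit [Finite G] in
theorem st1404 [BG10_1 G] (M : Subgroup G) (hM : IsCoatom M) (p : ℕ) (hp : p ∈ sigma M)
    (X : Subgroup G) (hXp : IsPGroup p X) (hXM : X ≤ M) :
    (∀ g : G, X.map (MulAut.conj g).toMonoidHom ≤ M → ∃ m ∈ M, ∃ c ∈ Subgroup.centralizer (X : Set G), g = m * c) ∧
      Subgroup.normalizer (X : Set G) = (M ⊓ Subgroup.normalizer (X : Set G)) ⊔ Subgroup.centralizer (X : Set G) :=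
  ⟨fun _ hg => BG10_1.a hM hp hXp hXM hg, (BG10_1.c hM hp hXp hXM).symm.sup_eq.symm⟩

theorem st1405 [BG10_2 G] (M : Subgroup G) (hM : IsCoatom M) :
    IsPiHallOf (alpha M) (alphaCore M) M ∧ IsPiHall (alpha M) (alphaCore M) ∧
      alphaCore M ≤ sigmaCore M ∧ RankLE 2 (↥M ⧸ piCore (alpha M) ↥M) ∧
      Group.IsNilpotent ↥((commutator ↥M).map (QuotientGroup.mk' (piCore (alpha M) ↥M))) := by
  have hn := (alphaCore_normal M).norm
  let e := quoEquiv hn (piCore (alpha M) M) (piCoreOf_subgroupOf _ M)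
  refine ⟨BG10_2.Malpha_Hall hM, Hall.top_iff.1 (BG10_2.Malpha_Hall_G hM), BG10_2.Malpha_le_Msigma hM, ?_, ?_⟩
  · rw [rankLE_iff_rank_top, rank_eq_of_equiv (Subgroup.topEquiv.trans e)]
    exact BG10_2.rank_quo_Malpha hM
  · have h1 : ((commutator M).map (QuotientGroup.mk' (piCore (alpha M) M))).map e.toMonoidHom =
        (quo (alphaCore M) ⁅M, M⁆).subgroupOf (quo (alphaCore M) M) := by
      rw [← map_quoHom hn (der_le M), der_subgroupOf, Subgroup.map_map]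
      rfl
    have h2 := isNilpotent_subgroupOf (BG10_2.Malpha_quo_nil hM) (quo (alphaCore M) M)
    rw [← h1] at h2
    exact Group.nilpotent_of_mulEquiv (Subgroup.equivMapOfInjective _ e.toMonoidHom e.injective).symm

theorem st1406 [BG10_3 G] (M : Subgroup G) (hM : IsCoatom M) (X : Subgroup G) (hXM : X ≤ M)
    (hXα : ∀ p : ℕ, p.Prime → p ∣ Nat.card X → p ∉ alpha M)
    (hr : ¬ RankLE 1 ↥(alphaCore M ⊓ Subgroup.centralizer (X : Set G))) :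
    InUniqueMaximal (M ⊓ Subgroup.centralizer (X : Set G)) :=
  BG10_3.out hM hXM hXα (not_rankLE_iff_rank.1 hr)

theorem st1407 [BG10_4 G] (M : Subgroup G) (hM : IsCoatom M) (p : ℕ) [hp' : Fact p.Prime]
    (hpM : p ∣ Nat.card M) (hp : p ∉ sigma M) (P : Sylow p M) :
    ∃ x : G, x ∈ ((Subgroup.center ↥(P : Subgroup M)).map (P : Subgroup M).subtype).map M.subtype ∧ orderOf x = p ∧
        IsZGroup ↥(alphaCore M ⊓ Subgroup.centralizer ({x} : Set G)) ∧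
        ¬ (Subgroup.centralizer ({x} : Set G) ≤ M ∧
          ∀ L : Subgroup G, IsCoatom L → Subgroup.centralizer ({x} : Set G) ≤ L → L = M) := by
  have hP := isSylowIn_map_subtype P
  obtain ⟨x, hx, ho, h1, h2⟩ := BG10_4.b hM hp'.out hp hP (sylow_ne_bot hP hpM)
  refine ⟨x, ?_, ho, h2, h1⟩
  obtain ⟨y, hy, rfl⟩ := hx.1
  rw [center_map_subtype]
  exact ⟨y, ⟨hy, mem_cent.2 fun z hz => Subtype.ext (mem_cent.1 hx.2 z ⟨z, hz, rfl⟩)⟩, rfl⟩

theorem st1408 [BG10_4 G] (M : Subgroup G) (hM : IsCoatom M) (p : ℕ) [hp' : Fact p.Prime] (hp : p ∉ sigma M)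
    (hr2 : PRankLE p 2 M) (hr1 : ¬ PRankLE p 1 M) :
    ¬ IsIdealPrime p G ∧ ∀ A : Subgroup G, A ≤ M → IsElementaryAbelian p A → Nat.card A = p ^ 2 →
        ∀ B : Subgroup G, IsElementaryAbelian p B → A ≤ B → B = A := by
  have hr : prank p M = 2 :=
    le_antisymm ((pRankLE_iff_prank hp'.out).1 hr2) ((not_pRankLE_iff_prank hp'.out).1 hr1)
  exact ⟨BG10_4.c2 hM hp'.out hp hr, fun A h1 h2 h3 B h4 h5 =>
    (BG10_4.c1 hM hp'.out hp hr ⟨h1, h2, h3⟩).eq_of_le h4 h5 le_top⟩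

theorem st1409 [BG10_4 G] [BG10_5 G] (M : Subgroup G) (hM : IsCoatom M) (p : ℕ) [hp' : Fact p.Prime]
    (hp : p ∉ sigma M) (X : Subgroup G) (hX : Nat.card X = p) (hNX : Subgroup.normalizer (X : Set G) ≤ M) :
    (PRankLE p 2 M ∧ ¬ PRankLE p 1 M) ∧ ¬ IsIdealPrime p G ∧
      ∃ A : Subgroup G, IsElementaryAbelian p A ∧ Nat.card A = p ^ 2 ∧ X ≤ A := by
  have hr := BG10_5.a hM hp'.out hp (isPGroup_of_card_eq hX) hNX
  obtain ⟨A, hA, hXA⟩ := BG10_5.b hM hp'.out hp hX hNX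
  exact ⟨⟨(pRankLE_iff_prank hp'.out).2 hr.le, (not_pRankLE_iff_prank hp'.out).2 hr.ge⟩,
    BG10_4.c2 hM hp'.out hp hr, A, hA.ea, hA.card, hXA⟩

theorem st1411 [BG10_7 G] (p : ℕ) [hp : Fact p.Prime] (P : Sylow p G)
    (V : Subgroup G) (hV : IsComplIn (P : Subgroup G) V (Subgroup.normalizer ((P : Subgroup G) : Set G))) :
    (P : Subgroup G) = ⁅(P : Subgroup G), V⁆ ∧
      (P : Subgroup G) ≤ ⁅Subgroup.normalizer ((P : Subgroup G) : Set G),
        Subgroup.normalizer ((P : Subgroup G) : Set G)⁆ :=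
  ⟨(BG10_7.a2 hp.out (isSylowIn_top P) (Sdp.of_isComplIn hV hV.2.1)).symm, BG10_7.a1 hp.out (isSylowIn_top P)⟩

theorem st1412 [BG10_7 G] (p : ℕ) [hp : Fact p.Prime] (P : Sylow p G) (hr : PRankLE p 2 (P : Subgroup G)) :
    IsMulCommutative (P : Subgroup G) ∨ ∃ P₁ P₂ : Subgroup G, P₁ ⊔ P₂ = (P : Subgroup G) ∧
        (∀ a ∈ P₁, ∀ b ∈ P₂, a * b = b * a) ∧
        ¬ IsMulCommutative P₁ ∧ Nat.card P₁ = p ^ 3 ∧ Monoid.exponent P₁ = p ∧ IsCyclic P₂ ∧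
        Subgroup.closure {x : G | x ∈ P₂ ∧ x ^ p = 1} = P₁ ⊓ Subgroup.centralizer (P₁ : Set G) := by
  refine or_iff_not_imp_left.2 fun hna => ?_
  obtain ⟨S, Y, h1, h2, h3, h4⟩ := BG10_7.b hp.out (isSylowIn_top P) ((pRankLE_iff_prank hp.out).1 hr) hna
  refine ⟨S, Y, h3.sup_eq, fun _ ha _ hb => h3.comm ha hb, h1.1, h1.2.1, ?_, h2, h4⟩
  have hd : Monoid.exponent S ∣ p :=
    Monoid.exponent_dvd_of_forall_pow_eq_one fun x => Subtype.ext (h1.2.2 x x.2)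
  refine ((Nat.dvd_prime hp.out).1 hd).resolve_left fun e => h1.1 ?_
  haveI := Monoid.exp_eq_one_iff.1 e
  exact ⟨⟨fun a b => Subsingleton.elim _ _⟩⟩

theorem st1413 [BG10_7 G] (p : ℕ) [hp : Fact p.Prime] (P : Sylow p G) :
    (∀ (Q : Subgroup G) (x : G), Q ≤ (P : Subgroup G) → Q.map (MulAut.conj x).toMonoidHom ≤ (P : Subgroup G) →
        ∃ y ∈ Subgroup.normalizer ((P : Subgroup G) : Set G),
          Q.map (MulAut.conj x).toMonoidHom = Q.map (MulAut.conj y).toMonoidHom) ∧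
      (∀ Q : Subgroup G, Q ≤ (P : Subgroup G) →
        ¬ p ∣ ((P : Subgroup G) ⊓ Subgroup.normalizer (Q : Set G)).relIndex (Subgroup.normalizer (Q : Set G))) ∧
      (∀ (R Q : Subgroup G), IsPGroup p R → Q ≤ (P : Subgroup G) ⊓ R →
        Subgroup.normalizer ((P : Subgroup G) : Set G) ≤ Subgroup.normalizer (Q : Set G) →
        Subgroup.normalizer (R : Set G) ≤ Subgroup.normalizer (Q : Set G)) :=
  ⟨fun _ _ h1 h2 => BG10_7.c hp.out (isSylowIn_top P) h1 h2,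
    fun _ h => (BG10_7.d hp.out (isSylowIn_top P) h).not_dvd,
    fun _ _ h1 h2 h3 => BG10_7.e hp.out (isSylowIn_top P) h1 h2 h3⟩

theorem st1414 [MinOdd G] [BG10_2 G] [BG10_8 G] (M : Subgroup G) (hM : IsCoatom M) :
    IsPiHallOf (beta M) (piCoreOf (beta M) M) M ∧ IsPiHall (beta M) (piCoreOf (beta M) M) ∧
      (∃ H : Subgroup G, IsPiHallOf {q | q.Prime ∧ q ∉ beta M} H ⁅M, M⁆ ∧ Group.IsNilpotent H) ∧
      (∃ H : Subgroup G, IsPiHallOf {q | q.Prime ∧ q ∉ beta M} H (sigmaCore M) ∧ Group.IsNilpotent H) ∧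
      ∀ p : ℕ, p.Prime → p ∣ Nat.card M → p ∉ beta M →
        HasNormalPComplement p ↥⁅M, M⁆ ∧ HasNormalPComplement p ↥(sigmaCore M) ∧
        ∀ q : ℕ, q.Prime → q ∣ (pPrimeCore p ↥M).index → q ≤ p := by
  have key : ∀ K : Subgroup G, K ≤ ⁅M, M⁆ →
      ∃ H : Subgroup G, IsPiHallOf {q | q.Prime ∧ q ∉ beta M} H K ∧ Group.IsNilpotent H := fun K hK => by
    obtain ⟨H, hH⟩ := Hall.exists_hall {q | q.Prime ∧ q ∉ beta M} (mmax_sol_of_le hM (hK.trans (der_le M)))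
    exact ⟨H, hH, BG10_8.beta'_der1_nil hM (fun q hq hd => (hH.2.1 q hq hd).2) (hH.1.trans hK)⟩
  refine ⟨BG10_8.Mbeta_Hall hM, Hall.top_iff.1 (BG10_8.Mbeta_Hall_G hM), key _ le_rfl,
    key _ (BG10_2.Msigma_der1 hM), fun p hp _ hβ => ?_⟩
  obtain ⟨h1, h2, h3⟩ := BG10_8.beta_max_pdiv hM hp hβ
  refine ⟨(pnilp_iff hp).1 h1, (pnilp_iff hp).1 h2, fun q hq hd => h3 q hq ?_⟩
  rwa [Subgroup.relIndex, piCoreOf_subgroupOf, ← pPrimeCore_eq_piCore_compl hp]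

end CL.Odd.S10
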