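/-
Closed instances of the interface classes of B & G sections 7 - 10.5 (hypotheses `[Finite G] [MinOdd G]` only).
Import this file instead of the proof files; instance search then finds each class in one step.
-/
import Cfsg.Agent.Odd.BG10S
import Cfsg.Agent.Odd.BG10c1
import Cfsg.Agent.Odd.BG9a
import Cfsg.Agent.Odd.BG8a
import Cfsg.Agent.Odd.BG7b
import Cfsg.Agent.Odd.BG4I
import Cfsg.Agent.Odd.BG5a
import Cfsg.Agent.Odd.BGBNormal
import Cfsg.Agent.Odd.BGAStable

set_option autoImplicit false

namespace CL.Odd

universe u

variable {G : Type u} [Group G] [Finite G] [MinOdd G]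

instance chain8_1 : BG8_1 G := bg8_1
instance chain9_1 : BG9_1 G := bg9_1
instance chain9_2 : BG9_2 G := bg9_2
instance chain9_6 : BG9_6 G := bg9_6
instance chain10_0 : BG10_0 G := bg10_0
instance chain10_1 : BG10_1 G := bg10_1
instance chain10_2 : BG10_2 G := bg10_2
instance chain10_3 : BG10_3 G := bg10_3
instance chain10_4 : BG10_4 G := bg10_4
instance chain10_5 : BG10_5 G := bg10_5
instance chain10_12 : BG10_12 G := bg10_12
instance chain10_14 : BG10_14 G := bg10_14

end CL.Odd
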