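/-
Bender's form of the Thompson transitivity theorem for groups whose `p`-local subgroups are `p`-constrained.
-/
import Cfsg.Agent.Odd.BG7a
import Cfsg.Agent.Loc.BaerTrick
import Cfsg.Agent.Loc.PConstr
import Cfsg.Agent.Loc.Chief

set_option autoImplicit false

open scoped Pointwise commutatorElement
open Cfsg CL.Grp

namespace CL.Odd.Tr

universe u

variable {G : Type u} [Group G] {p : ℕ}

/-- `p` is odd or all `p`-subgroups have class at most two -/
def Small (p : ℕ) (G : Type*) [Group G] : Prop :=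
  p ≠ 2 ∨ ∀ T : Subgroup G, IsPGroup p T → ⁅⁅T, T⁆, T⁆ = ⊥

/-- every `p`-subgroup of `C(E)` lies in `E` -/
def Full (p : ℕ) (E : Subgroup G) : Prop := ∀ T : Subgroup G, IsPGroup p T → T ≤ C[E] → T ≤ E

theorem Small.subgroup (h : Small p G) (X : Subgroup G) : Small p X :=
  h.imp_right fun h T hT => by
    rw [← Subgroup.map_eq_bot_iff_of_injective _ X.subtype_injective, Subgroup.map_commutator,
      Subgroup.map_commutator]
    exact h _ (hT.map _)

theorem exists_pgroup_map_eq {G' : Type*} [Group G'] [Finite G] [Fact p.Prime] (f : G →* G') {H : Subgroup G}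
    {T : Subgroup G'} (hT : IsPGroup p T) (hle : T ≤ H.map f) :
    ∃ S : Subgroup G, IsPGroup p S ∧ S ≤ H ∧ S.map f = T := by
  obtain ⟨S, hS⟩ := exists_isSylowIn (p := p) (H ⊓ T.comap f)
  have h1 := CL.Loc.isSylowIn_map hS f
  have h2 : (H ⊓ T.comap f).map f = T := by
    refine le_antisymm ((Subgroup.map_mono inf_le_right).trans (Subgroup.map_comap_le f T)) fun t ht => ?_
    obtain ⟨x, hx, rfl⟩ := hle ht
    exact ⟨x, Subgroup.mem_inf.mpr ⟨hx, ht⟩, rfl⟩
  rw [h2] at h1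
  exact ⟨S, hS.isPGroup, hS.le.trans inf_le_left, CL.Loc.isSylowIn_eq_of_isPGroup h1 hT⟩

theorem Small.map {G' : Type*} [Group G'] [Finite G] [Fact p.Prime] (h : Small p G) {f : G →* G'}
    (hf : Function.Surjective f) : Small p G' :=
  h.imp_right fun h T hT => by
    obtain ⟨S, hS, -, rfl⟩ := exists_pgroup_map_eq f (H := ⊤) hT (by rw [Subgroup.map_top_of_surjective f hf]; exact le_top)
    rw [← Subgroup.map_commutator, ← Subgroup.map_commutator, h S hS, Subgroup.map_bot]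

theorem Full.subgroupOf {E X : Subgroup G} (h : Full p E) (hle : E ≤ X) : Full p (E.subgroupOf X) := by
  intro T hT hc
  refine Subgroup.map_le_iff_le_comap.mp (h _ (hT.map _) ?_)
  rintro _ ⟨t, ht, rfl⟩
  refine (Subgroup.mem_centralizer_iff).mpr fun e he => ?_
  exact congrArg Subtype.val ((Subgroup.mem_centralizer_iff).mp (hc ht) ⟨e, hle he⟩ he)

theorem Full.map {G' : Type*} [Group G'] [Finite G] [Fact p.Prime] {E : Subgroup G} (h : Full p E)
    (hE : IsPGroup p E) {f : G →* G'} (hf : Function.Surjective f) (hk : (Nat.card f.ker).Coprime p) :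
    Full p (E.map f) := by
  intro T hT hc
  rw [← CL.Loc.map_centralizer_eq_of_coprime_ker hf hk hE] at hc
  obtain ⟨S, hS, hle, rfl⟩ := exists_pgroup_map_eq f hT hc
  exact Subgroup.map_mono (h S hS hle)

variable [Finite G] [hp : Fact p.Prime]

/-- a `p'`-group normalised by `E` centralises every `p`-group normalised by both -/
theorem le_cent_of_full (hs : Small p G) {E Q V : Subgroup G} (hE : IsPGroup p E) (hf : Full p E)
    (hQ : (Nat.card Q).Coprime p) (hEQ : E ≤ N[Q]) (hV : IsPGroup p V) (hEV : E ≤ N[V]) (hQV : Q ≤ N[V])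
    (hC : Q ⊓ C[V] ≤ V) : V ≤ C[Q] := by
  have hb : V ⊓ Q = ⊥ := CL.Loc.inf_eq_bot_of_isPGroup_of_coprime hV hQ
  have h0 : V ⊓ C[E] ≤ C[Q] := by
    have h1 : V ⊓ C[E] ≤ E := hf _ (hV.to_le inf_le_left) inf_le_right
    rw [← comm_eq_bot_iff, eq_bot_iff, ← hb]
    exact le_inf ((Subgroup.commutator_mono inf_le_left le_rfl).trans (comm_le_left hQV))
      (comm_le_right (h1.trans hEQ))
  rcases hs with h2 | h2
  · exact CL.Loc.le_centralizer_of_omega_fixed h2 hE hQ hEQ hV hEV hQV fun v hv _ hc =>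
      h0 (Subgroup.mem_inf.mpr ⟨hv, hc⟩)
  · have hT := h2 _ (IsPGroup.to_sup_of_normal_right' hE hV hEV)
    have hZ : ⁅V, E⁆ ≤ C[E ⊔ V] := by
      rw [← comm_eq_bot_iff, eq_bot_iff, ← hT]
      exact Subgroup.commutator_mono (Subgroup.commutator_mono le_sup_right le_sup_left) le_rfl
    have hZQ : ⁅V, E⁆ ≤ C[Q] := (le_inf (comm_le_left hEV) (hZ.trans (cent_anti le_sup_left))).trans h0
    have hc : ∀ A : Subgroup G, A ≤ Q → (Nat.card A).Coprime (Nat.card V) := fun A hA =>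
      coprime_of_le_left (coprime_card_of_isPGroup hV hQ).symm hA
    have hQ1 : ⁅Q, E⁆ ≤ Q := comm_le_left hEQ
    have h3 : ⁅⁅Q, E⁆, V⁆ ≤ ⁅V, E⁆ := by
      refine CL.Loc.three_subgroups_of_le_normalizer (le_norm_of_le_cent (cent_symm hZQ)) (right_le_norm_comm V E)
        (left_le_norm_comm V E) ?_ (Subgroup.commutator_mono (comm_le_left hQV) le_rfl)
      rw [Subgroup.commutator_comm E V, comm_eq_bot_iff.mpr hZQ]
      exact bot_le
    have h4 : ⁅Q, E⁆ ≤ C[V] := by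
      refine coprime_commGG1P (hQ1.trans hQV) (hc _ hQ1) ?_
      rw [comm_eq_bot_iff, Subgroup.commutator_comm V]
      exact h3.trans (hZQ.trans (cent_anti hQ1))
    have h5 : ⁅Q, E⁆ = ⊥ := by
      rw [eq_bot_iff, ← hb]
      exact le_inf ((le_inf hQ1 h4).trans hC) hQ1
    refine cent_symm (coprime_commGG1P hQV (hc _ le_rfl) ?_)
    rw [comm_eq_bot_iff]
    refine (le_inf (comm_le_left hQV) ?_).trans h0
    rw [← comm_eq_bot_iff, eq_bot_iff]
    have hn : ∀ A : Subgroup G, A ≤ N[(⊥ : Subgroup G)] := fun A => by rw [norm_bot]; exact le_top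
    refine CL.Loc.three_subgroups_of_le_normalizer (hn _) (hn _) (hn _) ?_ ?_
    · rw [h5, Subgroup.commutator_bot_left]
    · rw [Subgroup.commutator_comm E V, comm_eq_bot_iff.mpr hZQ]

theorem le_core_of_full (hs : Small p G) (hc : IsPConstrained p G) {E Q : Subgroup G} (hE : IsPGroup p E)
    (hf : Full p E) (hQ : (Nat.card Q).Coprime p) (hEQ : E ≤ N[Q]) : Q ≤ pPrimeCore p G := by
  set f := QuotientGroup.mk' (pPrimeCore p G)
  have hsurj : Function.Surjective f := QuotientGroup.mk'_surjective _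
  have hk : f.ker = pPrimeCore p G := QuotientGroup.ker_mk' _
  have hC := CL.Loc.isPConstrained_iff.mp hc
  have hQ' : (Nat.card (Q.map f)).Coprime p := Nat.Coprime.coprime_dvd_left (Subgroup.card_map_dvd Q f) hQ
  have hn : ∀ A : Subgroup (G ⧸ pPrimeCore p G), A ≤ N[pCore p (G ⧸ pPrimeCore p G)] := fun A => by
    rw [Subgroup.normalizer_eq_top]; exact le_top
  have h1 := le_cent_of_full (hs.map hsurj) (hE.map f) (hf.map hE hsurj (by rw [hk]; exact pPrimeCore_coprime p G)) hQ'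
    ((Subgroup.map_mono hEQ).trans (Subgroup.le_normalizer_map f)) (pCore_isPGroup p _) (hn _) (hn _)
    (inf_le_right.trans hC)
  rw [← hk, ← Subgroup.map_eq_bot_iff, eq_bot_iff,
    ← CL.Loc.inf_eq_bot_of_isPGroup_of_coprime (pCore_isPGroup p _) hQ']
  exact le_inf ((cent_symm h1).trans hC) le_rfl

theorem le_coreOf_of_full (hs : Small p G) {X E Q : Subgroup G} (hc : IsPConstrained p X) (hE : IsPGroup p E)
    (hf : Full p E) (hEX : E ≤ X) (hQX : Q ≤ X) (hQ : (Nat.card Q).Coprime p) (hEQ : E ≤ N[Q]) :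
    Q ≤ pPrimeCoreOf p X := by
  have h := le_core_of_full (hs.subgroup X) hc (hE.comap_subtype) (hf.subgroupOf hEX)
    (Q := Q.subgroupOf X) (by rwa [card_subgroupOf_of_le hQX])
    ((Subgroup.comap_mono hEQ).trans (Subgroup.le_normalizer_comap _))
  rw [← Subgroup.map_subgroupOf_eq_of_le hQX]
  exact Subgroup.map_mono h

/-- `C(E) = E × O_{p'}(C(E))` -/
theorem le_core_cent (hs : Small p G) {E Y : Subgroup G} (hc : IsPConstrained p ↥N[E]) (hE : IsPGroup p E)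
    (hf : Full p E) (hY : Y ≤ C[E]) (hYp : (Nat.card Y).Coprime p) :
    Y ≤ piCoreOf (primesNotDvd p) C[E] := by
  have h1 := le_coreOf_of_full hs hc hE hf (le_norm_self E) (hY.trans (cent_le_norm E)) hYp
    (le_norm_of_le_cent (cent_symm hY))
  have h2 := (le_inf h1 hY).trans (pPrimeCoreOf_inf_le (cent_le_norm E))
  rwa [pPrimeCoreOf_eq_piCoreOf, piCoreOf_congr_primes (π := {q | ¬ q ∣ p}) (ρ := primesNotDvd p) fun r hr =>
    ⟨fun h => ⟨hr, h⟩, fun h => h.2⟩] at h2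

/-- The transitivity theorem. -/
theorem transitivity (hs : Small p G)
    (hloc : ∀ T : Subgroup G, IsPGroup p T → T ≠ ⊥ → IsPConstrained p ↥N[T])
    {E : Subgroup G} (hE : IsPGroup p E) (hEc : IsMulCommutative E) (h3 : 2 < prank p E) (hf : Full p E)
    {q : ℕ} (hq : q.Prime) (hqp : q ≠ p) (n : ℕ) :
    ∀ Q₁ ∈ maxInvSubgroups ⊤ E {q}, ∀ Q₂ ∈ maxInvSubgroups ⊤ E {q}, Nat.card G ≤ Nat.card ↥(Q₁ ⊓ Q₂) + n →
      ∃ k ∈ piCoreOf (primesNotDvd p) C[E], Q₂ = cj k • Q₁ := by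
  have := Fact.mk hq
  have hpq : ∀ Y : Subgroup G, IsPGroup q Y → (Nat.card Y).Coprime p := fun Y hY => by
    obtain ⟨k, hk⟩ := IsPGroup.iff_card.mp hY
    rw [hk]
    exact Nat.Coprime.pow_left k ((Nat.coprime_primes hq hp.out).mpr hqp)
  obtain ⟨A, hA⟩ := exists_isPElem_of_le_prank hp.out (Nat.succ_le_of_lt h3)
  induction n with
  | zero =>
    intro Q₁ h₁ Q₂ h₂ hn
    have e := Subgroup.eq_top_of_le_card _ hn
    exact ⟨1, one_mem _, by
      rw [cj_one, top_le_iff.mp (e ▸ inf_le_left : ⊤ ≤ Q₁), top_le_iff.mp (e ▸ inf_le_right : ⊤ ≤ Q₂)]⟩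
  | succ n ih =>
    intro Q₁ h₁ Q₂ h₂ hn
    by_cases e : Q₁ = Q₂
    · exact ⟨1, one_mem _, by rw [cj_one, e]⟩
    have hp₁ := maxInv_isPGroup hq h₁
    have hp₂ := maxInv_isPGroup hq h₂
    set D := Q₁ ⊓ Q₂ with hD
    have lt₁ : D < Q₁ ⊓ N[D] := lt_inf_normalizer_of_isPGroup hp₁ (inf_lt_left.mpr fun h =>
      e (maxInv_eq h₁ (maxInv_pi h₂) (maxInv_norm h₂) le_top h).symm)
    have lt₂ : D < Q₂ ⊓ N[D] := lt_inf_normalizer_of_isPGroup hp₂ (inf_lt_right.mpr fun h =>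
      e (maxInv_eq h₂ (maxInv_pi h₁) (maxInv_norm h₁) le_top h))
    have hED : E ≤ N[D] := le_norm_inf (maxInv_norm h₁) (maxInv_norm h₂)
    have hn₁ : E ≤ N[Q₁ ⊓ N[D]] := le_norm_inf (maxInv_norm h₁) (le_norm_of_le hED)
    have hn₂ : E ≤ N[Q₂ ⊓ N[D]] := le_norm_inf (maxInv_norm h₂) (le_norm_of_le hED)
    have hcop : ∀ B Y : Subgroup G, B ≤ E → (Nat.card Y).Coprime p → (Nat.card B).Coprime (Nat.card Y) :=
      fun B Y hB hY => coprime_card_of_isPGroup (hE.to_le hB) hY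
    obtain ⟨B, hBA, ⟨a, ha, hB⟩, hB₁⟩ : ∃ B, B ≤ A ∧ (∃ a ∈ A, B ⊔ Subgroup.zpowers a = A) ∧
        ¬ (Q₁ ⊓ N[D]) ⊓ C[B] ≤ D := by
      by_contra h
      push Not at h
      exact lt₁.not_ge (coprime_abelian_gen_cent hA.abelian (hA.le.trans hn₁)
        (hcop _ _ hA.le (hpq _ (hp₁.to_le inf_le_left))) h)
    have hnc : ¬ IsCyclic B := by
      intro hc
      obtain ⟨m, hm⟩ := exists_isPElem hp.out (CL.Loc.ea_mono hA.ea hBA) hBA
      obtain ⟨l, hl⟩ := exists_isPElem hp.out (CL.Loc.ea_mono hA.ea (Subgroup.zpowers_le.mpr ha))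
        (Subgroup.zpowers_le.mpr ha)
      have h1 := (hm.cyclic_iff hp.out).mp hc
      have h2 := (hl.cyclic_iff hp.out).mp inferInstance
      have h3 := card_sup_dvd (le_norm_of_abelian hA.abelian hBA hl.le)
      rw [hB, hA.card, hm.card, hl.card, ← pow_add, Nat.pow_dvd_pow_iff_le_right hp.out.one_lt] at h3
      omega
    have hBE : B ≤ E := hBA.trans hA.le
    obtain ⟨z, hz, hz1, hz₂⟩ := coprime_abelian_exists_cent1 (abelian_of_le hA.abelian hBA) hnc
      (hBE.trans hn₂) (hcop _ _ hBE (hpq _ (hp₂.to_le inf_le_left))) lt₂.not_ge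
    have hz₁ : ¬ (Q₁ ⊓ N[D]) ⊓ C1[z] ≤ D := fun h => hB₁ ((inf_le_inf_left _ (cent_le_c1 hz)).trans h)
    have hEz : E ≤ C1[z] := (abelian_iff.mp hEc).trans (cent_le_c1 (hBE hz))
    set X := N[Subgroup.zpowers z]
    have hzX : C1[z] ≤ X := le_norm_zpowers_of_le_c1 le_rfl
    have hX : IsPConstrained p X := hloc _ (hE.to_le (Subgroup.zpowers_le.mpr (hBE hz)))
      (fun h => hz1 (Subgroup.zpowers_eq_bot.mp h))
    set Y := (pPrimeCoreOf p X ⊓ N[D]) ⊔ D with hY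
    have hEY : E ≤ N[Y] := le_norm_sup (le_norm_inf ((hEz.trans hzX).trans (le_normalizer_pPrimeCoreOf p X))
      (le_norm_of_le hED)) hED
    have hYp : (Nat.card Y).Coprime p := by
      exact Nat.Coprime.coprime_dvd_left (card_sup_dvd inf_le_right) (Nat.Coprime.mul_left
        ((pPrimeCoreOf_coprime p X).coprime_dvd_left (Subgroup.card_dvd_of_le inf_le_left))
        (hpq _ (hp₁.to_le inf_le_left)))
    have key : ∀ Q ∈ maxInvSubgroups ⊤ E {q}, D ≤ Q → ¬ (Q ⊓ N[D]) ⊓ C1[z] ≤ D →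
        ∃ S, IsSylowIn q S Y ∧ E ≤ N[S] ∧ D < S ⊓ Q := by
      intro Q hQ hDQ hz
      have hQq := maxInv_isPGroup hq hQ
      have hn : E ≤ N[(Q ⊓ N[D]) ⊓ C1[z]] := le_norm_inf (le_norm_inf (maxInv_norm hQ) (le_norm_of_le hED))
        (le_norm_c1_of_le_c1 hEz)
      have hle : ((Q ⊓ N[D]) ⊓ C1[z]) ⊔ D ≤ Q := sup_le (inf_le_left.trans inf_le_left) hDQ
      have h1 : (Q ⊓ N[D]) ⊓ C1[z] ≤ pPrimeCoreOf p X := le_coreOf_of_full hs hX hE hf (hEz.trans hzX)
        (inf_le_right.trans hzX) (hpq _ (hQq.to_le (inf_le_left.trans inf_le_left))) hn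
      obtain ⟨S, hS, hES, hRS⟩ := coprime_Sylow_subset hq hEY (hcop _ _ le_rfl hYp) (Or.inl (sol_of_isPGroup hp.out hE))
        (hQq.to_le hle) (sup_le_sup_right (le_inf h1 (inf_le_left.trans inf_le_right)) D) (le_norm_sup hn hED)
      refine ⟨S, hS, hES, lt_of_lt_of_le (lt_of_le_not_ge le_sup_right fun h => hz (le_sup_left.trans h))
        (le_inf hRS hle)⟩
    obtain ⟨S₁, hS₁, hn₁, l₁⟩ := key Q₁ h₁ inf_le_left hz₁
    obtain ⟨S₂, hS₂, hn₂, l₂⟩ := key Q₂ h₂ inf_le_right hz₂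
    obtain ⟨c, hc', e⟩ := coprime_Sylow_trans hq hEY (hcop _ _ le_rfl hYp) (Or.inl (sol_of_isPGroup hp.out hE))
      hS₁ hS₂ hn₁ hn₂
    have hcK : c ∈ piCoreOf (primesNotDvd p) C[E] :=
      le_core_cent hs (hloc E hE (ne_bot_of_le_ne_bot (hA.ne_bot hp.out (by omega)) hA.le)) hE hf inf_le_right
        (hYp.coprime_dvd_left (Subgroup.card_dvd_of_le inf_le_left)) hc'
    obtain ⟨Q₃, h₃, hle⟩ := maxInv_exists (H := ⊤) le_top (isPiSubgroup_singleton_iff.mpr hS₂.isPGroup) hn₂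
    have c₁ : Nat.card D < Nat.card ↥(cj c • Q₁ ⊓ Q₃) := by
      refine lt_of_lt_of_le (card_lt_card_of_lt l₁) ?_
      rw [← card_cj c]
      exact Subgroup.card_le_of_le (le_inf (cj_mono c inf_le_right) ((cj_mono c inf_le_left).trans (e ▸ hle)))
    have c₂ : Nat.card D < Nat.card ↥(Q₃ ⊓ Q₂) :=
      lt_of_lt_of_le (card_lt_card_of_lt l₂) (Subgroup.card_le_of_le (inf_le_inf_right _ hle))
    obtain ⟨k₁, hk₁, e₁⟩ := ih _ (maxInv_cj h₁ (cent_le_norm E (piCoreOf_le _ _ hcK))) Q₃ h₃ (by omega)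
    obtain ⟨k₂, hk₂, e₂⟩ := ih Q₃ h₃ Q₂ h₂ (by omega)
    exact ⟨k₂ * (k₁ * c), mul_mem hk₂ (mul_mem hk₁ hcK), by rw [cj_mul, cj_mul, ← e₁, ← e₂]⟩

theorem small_of_sylow (h : p = 2 → ∀ S : Sylow p G, Group.IsNilpotent (S : Subgroup G) ∧
    Group.nilpotencyClass (S : Subgroup G) ≤ 2) : Small p G := by
  refine or_iff_not_imp_left.mpr fun h2 T hT => ?_
  obtain ⟨S, hS⟩ := hT.exists_le_sylow
  obtain ⟨h3, h4⟩ := h (not_not.mp h2) S
  rw [eq_bot_iff, ← Subgroup.lowerCentralSeries_eq_bot_of_nilpotencyClass_le h4]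
  exact Subgroup.commutator_mono (Subgroup.commutator_mono hS hS) hS

theorem full_of_scn (P : Sylow p G) {B : Subgroup G} (hn : (P : Subgroup G) ≤ N[B])
    (hc : (P : Subgroup G) ⊓ C[B] = B) : Full p B := by
  have h1 : IsSylowIn p B C[B] := by
    have := (isSylowIn_of_le P hn).inf_of_normalized (cent_le_norm B) (le_norm_cent le_rfl)
    rwa [hc] at this
  intro T hT hle
  rw [← h1.eq_of_le (IsPGroup.to_sup_of_normal_right' hT h1.isPGroup (hle.trans (cent_le_norm B))) le_sup_right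
    (sup_le hle h1.le)]
  exact le_sup_left

end CL.Odd.Tr
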