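/-
The Prelude form `Cfsg.IsTypePWith` of type P implies the ambient form `OfTypeP`.
-/
import Cfsg.Agent.Odd.BG16a
import Cfsg.Agent.Odd.BG13Pre

set_option autoImplicit false

open scoped Pointwise commutatorElement
open Cfsg CL.Grp

namespace CL.Odd

open T16

universe u

variable {G : Type u} [Group G] {M U W₁ W₂ A B : Subgroup G}

theorem sdp_of_complIn (h : IsComplIn A B M) (hn : B ≤ N[A]) : Sdp A B M :=
  ⟨le_antisymm (sup_le h.1 h.2.1) fun m hm => by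
    obtain ⟨a, ha, b, hb, rfl⟩ := h.2.2.2 m hm
    exact Subgroup.mul_mem_sup ha hb, hn, h.2.2.1⟩

theorem selfNorm_dp (h : IsSelfNormalizingCyclic W₁ W₂) : Dp W₁ W₂ (W₁ ⊔ W₂) :=
  ⟨rfl, fun b hb => (Subgroup.mem_centralizer_iff).mpr fun a ha => h.2.2.2.1 a ha b hb, h.2.2.1⟩

theorem selfNorm_mul_mem (h : IsSelfNormalizingCyclic W₁ W₂) {a b : G} (ha : a ∈ W₁) (ha1 : a ≠ 1)
    (hb : b ∈ W₂) (hb1 : b ≠ 1) : a * b ∈ cyclicTIset W₁ W₂ := by
  refine mem_cyclicTIset.mpr ⟨Subgroup.mul_mem_sup ha hb, fun h1 => hb1 ?_, fun h2 => ha1 ?_⟩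
  · have : b ∈ W₁ ⊓ W₂ := ⟨by simpa using W₁.mul_mem (W₁.inv_mem ha) h1, hb⟩
    rwa [h.2.2.1, Subgroup.mem_bot] at this
  · have : a ∈ W₁ ⊓ W₂ := ⟨ha, by simpa using W₂.mul_mem h2 (W₂.inv_mem hb)⟩
    rwa [h.2.2.1, Subgroup.mem_bot] at this

theorem norm_singleton (x : G) : Subgroup.normalizer ({x} : Set G) = C1[x] := by
  ext g
  rw [mem_c1_iff_conj, Subgroup.mem_set_normalizer_iff]
  simp only [Set.mem_singleton_iff]
  refine ⟨fun e => (e x).mp rfl, fun e y => ⟨fun h => h ▸ e, fun h => ?_⟩⟩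
  rw [← e] at h
  simpa using h

theorem selfNorm_c1 (h : IsSelfNormalizingCyclic W₁ W₂) {x : G} (hx : x ∈ cyclicTIset W₁ W₂) :
    C1[x] = W₁ ⊔ W₂ := by
  rw [← h.2.2.2.2.2 {x} (Set.singleton_subset_iff.mpr hx) ⟨x, rfl⟩, norm_singleton]

theorem selfNorm_normedTI [Finite G] (h : IsSelfNormalizingCyclic W₁ W₂) :
    NormedTI (cyclicTIset W₁ W₂) ⊤ (W₁ ⊔ W₂) := by
  obtain ⟨⟨a, ha⟩, ha1⟩ := Subgroup.ne_bot_iff_exists_ne_one.mp h.1
  obtain ⟨⟨b, hb⟩, hb1⟩ := Subgroup.ne_bot_iff_exists_ne_one.mp h.2.1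
  have hne : (cyclicTIset W₁ W₂).Nonempty :=
    ⟨_, selfNorm_mul_mem h ha (by simpa using ha1) hb (by simpa using hb1)⟩
  have hN : Subgroup.normalizer (cyclicTIset W₁ W₂) = W₁ ⊔ W₂ := h.2.2.2.2.2 _ subset_rfl hne
  refine ⟨hne, le_top, fun x hx g _ => ⟨fun hg => ?_, fun hg => ?_⟩⟩
  · have h0 : g ∈ N[W₁ ⊔ W₂] := by
      apply mem_norm_of_cj_le
      rw [← selfNorm_c1 h hx, cj_c1, selfNorm_c1 h hg, selfNorm_c1 h hx]
    have h1 := S13.norm_le_norm_of_cyclic h.2.2.2.2.1 le_sup_left h0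
    have h2 := S13.norm_le_norm_of_cyclic h.2.2.2.2.1 le_sup_right h0
    rw [← hN, Subgroup.mem_set_normalizer_iff]
    intro y
    rw [mem_cyclicTIset, mem_cyclicTIset, ← Subgroup.mem_normalizer_iff.mp h0, ← Subgroup.mem_normalizer_iff.mp h1,
      ← Subgroup.mem_normalizer_iff.mp h2]
  · rw [← hN, Subgroup.mem_set_normalizer_iff] at hg
    exact (hg x).mp hx

theorem ofTypeP_of_typePWith [Finite G] (h : IsTypePWith M W₁ U W₂) : OfTypeP M U W₁ W₂ where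
  dp := selfNorm_dp h.selfNormalizing
  W₁_cyclic := h.W₁_cyclic
  W₁_hall := h.W₁_hall
  W₁_ne := h.W₁_ne
  sdpM := sdp_of_complIn h.W₁_compl (h.W₁_compl.2.1.trans ((le_norm_self M).trans (norm_le_norm_der M)))
  U_nil := h.U_nilpotent
  U_norm := h.U_normal
  sdpD := sdp_of_complIn h.U_compl ((h.U_compl.2.1.trans (der_le M)).trans (fc_normal M).2)
  H_not_cyclic := h.H_not_cyclic
  der2_le := h.fitting_eq ▸ h.derived_two_le
  fit_eq := h.fitting_eq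
  fit_le := h.fitting_le
  W₂_cyclic := cyclic_of_le h.selfNormalizing.2.2.2.2.1 le_sup_right
  W₂_ne := h.selfNormalizing.2.1
  W₂_le := h.W₂_le.trans inf_le_left
  W₂_le_der2 := h.W₂_le.trans inf_le_right
  cent := h.W₂_centralizer
  ti := selfNorm_normedTI h.selfNormalizing

end CL.Odd
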